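import Cfsg.Agent.Comp.S44.Mat
import Cfsg.Agent.S0245

set_option autoImplicit false
set_option maxRecDepth 100000

namespace Cfsg.Agent.Comp.S44
open Cfsg.Agent.Comp Matrix

theorem hmem : ∀ x < 6, ∃ g, (symplecticGroup (Fin 2) K4).subtype g = Mm x :=
  fun x hx => ⟨⟨Mm x, SymplecticGroup.mem_iff.mpr ((by rw [Mfast]; decide +kernel :
    ∀ x < 6, Mm x * J (Fin 2) K4 * (Mm x)ᵀ = J (Fin 2) K4) x hx)⟩, rfl⟩

theorem card_sp : Nat.card (symplecticGroup (Fin 2) K4) = 979200 := by
  rw [S0245.result card_K4 2]; decide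

theorem iso : Nonempty (G ≃* symplecticGroup (Fin 2) K4) := by
  have := simple
  have := card.1
  refine ⟨(pres.equiv_of_card hR (liftS (symplecticGroup (Fin 2) K4).subtype Mm)
    (sat_liftS Subtype.val_injective hmem hR satM)
    (x := 0) (by norm_num) (fun e => ?_) (card.2.1.trans card_sp.symm)).choose⟩
  have h2 := liftS_val (hmem 0 (by norm_num))
  rw [e, map_one, Mfast] at h2
  exact absurd h2 (by decide +kernel)

end Cfsg.Agent.Comp.S44
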