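import Cfsg.Agent.Comp.S44.Main
import Cfsg.Agent.Comp.Mat3
import Cfsg.Agent.Comp.Mat2

set_option autoImplicit false
set_option maxRecDepth 100000

namespace Cfsg.Agent.Comp.S44
open Cfsg.Agent.Comp

def mI : List Nat := [nat_lit 1, nat_lit 16, nat_lit 256, nat_lit 4096, nat_lit 65536, nat_lit 1048576, nat_lit 16777216, nat_lit 268435456]

def mC : List Nat := [nat_lit 1, nat_lit 16, nat_lit 256, nat_lit 4096]

def mO : List Nat := [nat_lit 65536, nat_lit 1048576, nat_lit 16777216, nat_lit 268435456, nat_lit 65537, nat_lit 1048592, nat_lit 16777472, nat_lit 268439552]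

def men : Fin 2 ⊕ Fin 2 → ℕ := Sum.elim Fin.val fun i => i.val + 2

theorem menum : Enum (nat_lit 4) men := by decide +kernel

def mbs : List (Fin 2 ⊕ Fin 2 → K4) := sbs (nat_lit 4) (nat_lit 8) men w4

theorem mms : MS (nat_lit 2) (nat_lit 4) (nat_lit 15) (nat_lit 4) mI mC mO mbs men (w4 : K4) :=
  menum.ms (len := (nat_lit 8)) (a := 1) (b := 1) (by decide +kernel) (by decide +kernel) (by decide +kernel)

theorem mstd : Std (nat_lit 4) (nat_lit 8) mbs men (w4 : K4) := menum.std (by decide) _

def M : List (List Nat) :=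
  [[nat_lit 65537, nat_lit 1048592, nat_lit 16777217, nat_lit 268435456, nat_lit 1, nat_lit 16, nat_lit 16843008, nat_lit 268439552],
   [nat_lit 65536, nat_lit 1048576, nat_lit 16777473, nat_lit 268439552, nat_lit 65537, nat_lit 1048592, nat_lit 65792, nat_lit 4096],
   [nat_lit 1, nat_lit 16, nat_lit 256, nat_lit 1052672, nat_lit 65536, nat_lit 1048576, nat_lit 16777216, nat_lit 269484048],
   [nat_lit 1, nat_lit 268439568, nat_lit 256, nat_lit 4096, nat_lit 65536, nat_lit 1052672, nat_lit 16777216, nat_lit 268435456],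
   [nat_lit 1, nat_lit 16, nat_lit 1114368, nat_lit 1118208, nat_lit 65536, nat_lit 1048576, nat_lit 17891345, nat_lit 269549585],
   [nat_lit 4352, nat_lit 4369, nat_lit 4097, nat_lit 4096, nat_lit 285212672, nat_lit 286326784, nat_lit 268500992, nat_lit 268435456]]

theorem Mok : MOK (nat_lit 2) (nat_lit 4) mbs men M := mms.mok (by decide +kernel)

/-- the matrices of the letters -/
def Mm : ℕ → Matrix (Fin 2 ⊕ Fin 2) (Fin 2 ⊕ Fin 2) (K4) := mat (nat_lit 4) mbs men M

theorem Mfast : Mm = fmat (nat_lit 4) (nat_lit 4) (nat_lit 8) (w4 : K4) men M := mstd.mat_eq _ _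

theorem satM : Sat Mm R := mms.sat Mok (by decide +kernel)


end Cfsg.Agent.Comp.S44
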