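import Cfsg.Agent.Comp.Extra

set_option autoImplicit false
set_option maxRecDepth 100000

namespace Cfsg.Agent.Comp.S44
open Cfsg.Agent.Comp

def R : List (List Nat) :=
  [[0, 1],
   [1, 0],
   [2, 2],
   [3, 3],
   [4, 4],
   [5, 5],
   [0, 0, 0],
   [0, 2, 0, 2, 0, 2],
   [2, 3, 2, 3, 2, 3],
   [0, 2, 1, 3, 2, 1, 3, 0, 2, 3],
   [2, 4, 2, 4],
   [0, 4, 1, 2, 0, 4, 1, 2],
   [3, 5, 3, 5],
   [4, 5, 4, 5],
   [0, 5, 2, 5, 1, 2, 5, 2],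
   [0, 4, 1, 3, 4, 1, 3, 0, 4, 3],
   [0, 2, 3, 1, 4, 1, 3, 2, 5, 0, 2, 3, 1, 4, 1, 3, 2, 5]]

def iv : Nat := 247132686337

/-- the presented group -/
abbrev G : Type := Pres 6 R

/-- the letters -/
def s : ℕ → G := presS 6 R

theorem hR : ∀ w ∈ R, ∀ x ∈ w, x < 6 := by decide +kernel

theorem pres : IsPres s 6 R := isPres_pres hR

end Cfsg.Agent.Comp.S44
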